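import Mathlib
import Cfsg.Agent.Lib.Helper33.K4
import Cfsg.Agent.Lib.Helper33.Tr3

/-!
# Commutator degree on chief factors: the critical subgroup bound

`goodFor_of_chief_degrees`: let `P` be a nilpotent normal subgroup of the finite group `G` and
`Q ≤ P` a normal subgroup with `[P, Q] ≤ Z(Q)` and `C_P(Q) ≤ Z(Q)`.  If `X` acts with degree
`≤ i` on every chief factor of `G` inside `Q` and with degree `≤ j` on every chief factor inside
`Z(Q)`, then it acts with degree `≤ i + j - 1` on every chief factor inside `P`.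

The proof uses a chief series `N` of `G` below `Q`, the depth filtration
`Y_c = {u ∈ P | [N_a, u] ≤ N_(a-c) ∩ Z(Q) for all a}` and a "Hom lemma" for one chief factor
mapping to another.
-/

set_option autoImplicit false
open scoped commutatorElement

namespace Cfsg.Agent.Lib.Helper49

open Subgroup Cfsg Cfsg.Agent.Lib.Helper33

section KHom

variable {G : Type*} [Group G]

/-- The Hom lemma with the source only nilpotent modulo a part centralized by `Y`. -/
theorem hom_lemma_aux2 {X M Y N : Subgroup G}
    (hXM : X ≤ normalizer (M : Set G)) (hXY : X ≤ normalizer (Y : Set G))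
    (hXN : X ≤ normalizer (N : Set G))
    (hNM : M ≤ centralizer (N : Set G)) (hNY : Y ≤ centralizer (N : Set G))
    (hMY : ⁅M, Y⁆ ≤ N) {α : ℕ} (hM : ⁅iterCommutator M X α, Y⁆ = ⊥) :
    ∀ j a : ℕ, ⁅iterCommutator M X a, iterCommutator Y X j⁆ ≤
      iterCommutator N X (a + j + 1 - α) := by
  intro j
  induction j with
  | zero =>
    intro a
    rcases Nat.lt_or_ge a α with h1 | h1
    · have e : a + 0 + 1 - α = 0 := by omega
      rw [e]
      exact (Subgroup.commutator_mono (iterCommutator_le_of_le_normalizer hXM a) le_rfl).trans hMY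
    · have h2 : ⁅iterCommutator M X a, iterCommutator Y X 0⁆ ≤ ⁅iterCommutator M X α, Y⁆ :=
        Subgroup.commutator_mono (iterCommutator_antitone hXM h1) le_rfl
      rw [hM] at h2
      exact h2.trans bot_le
  | succ j ih =>
    intro a
    have hcen : ∀ b : ℕ, centralizer (N : Set G) ≤
        normalizer ((iterCommutator N X b : Subgroup G) : Set G) := fun b =>
      (Subgroup.centralizer_le (iterCommutator_le_of_le_normalizer hXN b)).trans
        (Subgroup.centralizer_le_normalizer _)
    rw [Subgroup.commutator_comm]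
    show ⁅⁅iterCommutator Y X j, X⁆, iterCommutator M X a⁆ ≤ _
    apply three_subgroups_mod
    · exact ((iterCommutator_le_of_le_normalizer hXY j).trans hNY).trans (hcen _)
    · exact le_normalizer_iterCommutator hXN Subgroup.le_normalizer _
    · exact ((iterCommutator_le_of_le_normalizer hXM a).trans hNM).trans (hcen _)
    · rw [Subgroup.commutator_comm X]
      have h1 := ih (a + 1)
      have e : a + 1 + j + 1 - α = a + (j + 1) + 1 - α := by omega
      rw [e] at h1
      exact h1
    · have h1 := Subgroup.commutator_mono (ih a) (le_refl X)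
      refine h1.trans ?_
      show iterCommutator N X (a + j + 1 - α + 1) ≤ _
      exact iterCommutator_antitone hXN (by omega)

theorem hom_lemma2 {X M Y N : Subgroup G}
    (hXM : X ≤ normalizer (M : Set G)) (hXY : X ≤ normalizer (Y : Set G))
    (hXN : X ≤ normalizer (N : Set G))
    (hNM : M ≤ centralizer (N : Set G)) (hNY : Y ≤ centralizer (N : Set G))
    (hMY : ⁅M, Y⁆ ≤ N) {α β k : ℕ} (hM : ⁅iterCommutator M X α, Y⁆ = ⊥)
    (hN : iterCommutator N X β = ⊥) (hk : α + β ≤ k + 1) :
    ⁅M, iterCommutator Y X k⁆ = ⊥ := by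
  have h := hom_lemma_aux2 hXM hXY hXN hNM hNY hMY hM k 0
  rw [iterCommutator_eq_bot_of_le (by omega) hN] at h
  exact le_bot_iff.1 h

/-- The Hom lemma for a factor `M / M'` mapping to a factor `N / N'`: here `M'` enters only
through the hypothesis `hM`. -/
theorem hom_lemma_mod2 {X M Y N N' : Subgroup G} [N'.Normal]
    (hXM : X ≤ normalizer (M : Set G)) (hXY : X ≤ normalizer (Y : Set G))
    (hXN : X ≤ normalizer (N : Set G))
    (hNM : ⁅M, N⁆ ≤ N') (hNY : ⁅Y, N⁆ ≤ N')
    (hMY : ⁅M, Y⁆ ≤ N ⊔ N') {α β k : ℕ} (hM : ⁅iterCommutator M X α, Y⁆ ≤ N')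
    (hN : iterCommutator N X β ≤ N') (hk : α + β ≤ k + 1) :
    ⁅M, iterCommutator Y X k⁆ ≤ N' := by
  have hnorm : ∀ {H : Subgroup G}, X ≤ normalizer (H : Set G) →
      X.map (QuotientGroup.mk' N') ≤
        normalizer ((H.map (QuotientGroup.mk' N') : Subgroup (G ⧸ N')) : Set (G ⧸ N')) :=
    fun h => (Subgroup.map_mono h).trans (Subgroup.le_normalizer_map _)
  have h := hom_lemma2 (X := X.map (QuotientGroup.mk' N')) (M := M.map (QuotientGroup.mk' N'))
    (Y := Y.map (QuotientGroup.mk' N')) (N := N.map (QuotientGroup.mk' N'))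
    (hnorm hXM) (hnorm hXY) (hnorm hXN)
    (by rw [← Subgroup.commutator_eq_bot_iff_le_centralizer, ← Subgroup.map_commutator,
      map_mk'_eq_bot_iff]; exact hNM)
    (by rw [← Subgroup.commutator_eq_bot_iff_le_centralizer, ← Subgroup.map_commutator,
      map_mk'_eq_bot_iff]; exact hNY)
    (by
      rw [← Subgroup.map_commutator]
      refine (Subgroup.map_mono hMY).trans ?_
      rw [Subgroup.map_sup, map_mk'_eq_bot_iff.2 (le_refl N'), sup_bot_eq])
    (α := α) (β := β) (k := k)
    (by rw [← iterCommutator_map, ← Subgroup.map_commutator, map_mk'_eq_bot_iff]; exact hM)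
    (by rw [← iterCommutator_map, map_mk'_eq_bot_iff]; exact hN) hk
  rw [← iterCommutator_map, ← Subgroup.map_commutator, map_mk'_eq_bot_iff] at h
  exact h

/-- A nilpotent normal subgroup centralizes every chief factor inside it. -/
theorem chief_commutator_le {P A B : Subgroup G} (hP : P.Normal)
    (hPnil : Group.IsNilpotent P) (h : IsChiefFactor B A) (hBP : B ≤ P) : ⁅B, P⁆ ≤ A := by
  obtain ⟨hlt, hBn, hAn, hmin⟩ := h
  have hn : (⁅B, P⁆ ⊔ A).Normal := inferInstance
  rcases hmin _ hn le_sup_right (sup_le (Subgroup.commutator_le_left B P) hlt.le) with h1 | h1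
  · rw [← h1]; exact le_sup_left
  · exfalso
    obtain ⟨m, hm⟩ := exists_iterCommutator_eq_bot hPnil hBP
    have key : ∀ n : ℕ, B ≤ iterCommutator B P n ⊔ A := by
      intro n
      induction n with
      | zero => exact le_sup_left
      | succ n ih =>
        have h2 : ⁅B, P⁆ ≤ ⁅iterCommutator B P n ⊔ A, P⁆ := Subgroup.commutator_mono ih le_rfl
        have h3 : ⁅iterCommutator B P n ⊔ A, P⁆ ≤ ⁅iterCommutator B P n, P⁆ ⊔ A :=
          iterCommutator_sup_le (P := iterCommutator B P n) (V := A) (C := P) 1
        calc B = ⁅B, P⁆ ⊔ A := h1.symm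
          _ ≤ (⁅iterCommutator B P n, P⁆ ⊔ A) ⊔ A := sup_le_sup_right (h2.trans h3) A
          _ = ⁅iterCommutator B P n, P⁆ ⊔ A := by rw [sup_assoc, sup_idem]
    have h4 := key m
    rw [hm, bot_sup_eq] at h4
    exact absurd h4 (not_le_of_gt hlt)

/-- Intersecting a step of a chief series with a normal subgroup gives a chief factor or
nothing. -/
theorem step_inf {A B Zn : Subgroup G} (hZn : Zn.Normal) (hAn : A.Normal) (hBn : B.Normal)
    (hAB : A ≤ B) (h : A = B ∨ IsChiefFactor B A) :
    A ⊓ Zn = B ⊓ Zn ∨ IsChiefFactor (B ⊓ Zn) (A ⊓ Zn) := by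
  rcases h with h | h
  · left; rw [h]
  · by_cases he : A ⊓ Zn = B ⊓ Zn
    · exact Or.inl he
    · right
      obtain ⟨hlt, -, -, hmin⟩ := h
      refine ⟨lt_of_le_of_ne (inf_le_inf_right Zn hAB) he, inferInstance, inferInstance,
        fun L hL hAL hLB => ?_⟩
      have hn : (L ⊔ A).Normal := inferInstance
      rcases hmin _ hn le_sup_right (sup_le (hLB.trans inf_le_left) hAB) with h1 | h1
      · left
        refine le_antisymm (le_inf ?_ (hLB.trans inf_le_right)) hAL
        rw [← h1]; exact le_sup_left
      · right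
        refine le_antisymm hLB ?_
        intro x hx
        have hx1 : x ∈ L ⊔ A := by rw [h1]; exact hx.1
        rw [← SetLike.mem_coe, Subgroup.mul_normal, Set.mem_mul] at hx1
        obtain ⟨l, hl, a, ha, rfl⟩ := hx1
        have hlZ : l ∈ Zn := (hLB hl).2
        have haZ : a ∈ Zn := by
          have h2 := Zn.mul_mem (Zn.inv_mem hlZ) hx.2
          rwa [inv_mul_cancel_left] at h2
        exact L.mul_mem hl (hAL ⟨ha, haZ⟩)

/-- A chief series of the finite group `G` below the normal subgroup `B`, with repetitions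
allowed. -/
theorem exists_chief_chain [Finite G] : ∀ B : Subgroup G, B.Normal →
    ∃ (n : ℕ) (N : ℕ → Subgroup G), N 0 = ⊥ ∧ N n = B ∧ (∀ a, (N a).Normal) ∧
      (∀ a, N a ≤ N (a + 1)) ∧ (∀ a, N a ≤ B) ∧
      ∀ a, N a = N (a + 1) ∨ IsChiefFactor (N (a + 1)) (N a) := by
  intro B
  induction B using WellFoundedLT.induction with
  | ind B ih =>
    intro hB
    by_cases hb : B = ⊥
    · refine ⟨0, fun _ => ⊥, rfl, hb.symm, fun _ => inferInstance, fun _ => le_rfl,
        fun _ => bot_le, fun _ => Or.inl rfl⟩
    · obtain ⟨Y, hY⟩ := exists_chiefFactor_below hB hb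
      obtain ⟨n, N, h0, hn, hnorm, hmono, hle, hstep⟩ := ih Y hY.1 hY.2.2.1
      refine ⟨n + 1, fun a => if a ≤ n then N a else B, ?_, ?_, ?_, ?_, ?_, ?_⟩
      · simp [h0]
      · simp
      · intro a
        by_cases ha : a ≤ n
        · simp only [ha, if_true]; exact hnorm a
        · simp only [ha, if_false]; exact hB
      · intro a
        by_cases ha : a + 1 ≤ n
        · have ha' : a ≤ n := by omega
          simp only [ha, ha', if_true]; exact hmono a
        · by_cases ha' : a ≤ n
          · simp only [ha, ha', if_true, if_false]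
            exact (hle a).trans hY.1.le
          · simp only [ha, ha', if_false]; exact le_rfl
      · intro a
        by_cases ha : a ≤ n
        · simp only [ha, if_true]; exact (hle a).trans hY.1.le
        · simp only [ha, if_false]; exact le_rfl
      · intro a
        by_cases ha : a + 1 ≤ n
        · have ha' : a ≤ n := by omega
          simp only [ha, ha', if_true]; exact hstep a
        · by_cases ha' : a ≤ n
          · have e : a = n := by omega
            simp only [ha, ha', if_true, if_false]
            right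
            rw [e, hn]
            exact hY
          · left
            show (if a ≤ n then N a else B) = (if a + 1 ≤ n then N (a + 1) else B)
            rw [if_neg ha', if_neg ha]

/-- If `X` has degree `≤ k` on every chief factor inside the normal subgroup `N`, then it is
good for `N`. -/
theorem goodFor_of_chief {X N : Subgroup G} {k : ℕ} (hN : N.Normal)
    (h : ∀ U V : Subgroup G, IsChiefFactor U V → U ≤ N → iterCommutator U X k ≤ V) :
    GoodFor X k N := by
  intro U V hUV hU
  have hUV' := hUV
  obtain ⟨hlt, hUn, hVn, hmin⟩ := hUV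
  have hc : IsChiefFactor (U ⊓ N) (V ⊓ N) := by
    rcases step_inf hN hVn hUn hlt.le (Or.inr hUV') with h1 | h1
    · exfalso
      apply not_le_of_gt hlt
      calc U ≤ (U ⊓ N) ⊔ V := hU
        _ = (V ⊓ N) ⊔ V := by rw [h1]
        _ = V := sup_eq_right.mpr inf_le_left
    · exact h1
  have h2 := h _ _ hc inf_le_right
  have h3 : iterCommutator U X k ≤ iterCommutator ((U ⊓ N) ⊔ V) X k := iterCommutator_mono hU k
  exact h3.trans ((iterCommutator_sup_le k).trans (sup_le (h2.trans inf_le_left) le_rfl))

/-- The depth filtration of `P` with respect to the series `N` and the target `Zn`. -/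
def depthFil (P Zn : Subgroup G) (N : ℕ → Subgroup G) (c : ℕ) : Subgroup G :=
  P ⊓ ⨅ a : ℕ, centMod (N a) (N (a - c) ⊓ Zn)

/-- The commutator degree bound for chief factors below a normal nilpotent subgroup `P` with a
"critical" normal subgroup `Q`. -/
theorem goodFor_of_chief_degrees [Finite G] {P Q X : Subgroup G} (hP : P.Normal)
    (hPnil : Group.IsNilpotent P) (hQ : Q.Normal) (hQP : Q ≤ P)
    (hPQ : ⁅P, Q⁆ ≤ Q ⊓ centralizer (Q : Set G))
    (hcen : P ⊓ centralizer (Q : Set G) ≤ Q ⊓ centralizer (Q : Set G)) {i j : ℕ}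
    (hi : 1 ≤ i) (hj : 1 ≤ j)
    (hQi : ∀ U V : Subgroup G, IsChiefFactor U V → U ≤ Q → iterCommutator U X i ≤ V)
    (hZj : ∀ U V : Subgroup G, IsChiefFactor U V → U ≤ Q ⊓ centralizer (Q : Set G) →
      iterCommutator U X j ≤ V) :
    GoodFor X (i + j - 1) P := by
  obtain ⟨Z, hZ⟩ : ∃ Z : Subgroup G, Z = Q ⊓ centralizer (Q : Set G) := ⟨_, rfl⟩
  rw [← hZ] at hPQ hcen hZj
  have hZn : Z.Normal := by rw [hZ]; infer_instance
  obtain ⟨t, N, hN0, hNt, hNn, hNmono, hNQ, hNstep⟩ := exists_chief_chain Q hQ
  obtain ⟨k, hk⟩ : ∃ k : ℕ, k = i + j - 1 := ⟨_, rfl⟩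
  rw [← hk]
  have hTn : ∀ b, (N b ⊓ Z).Normal := fun b => by have := hNn b; infer_instance
  have hTstep : ∀ b, iterCommutator (N (b + 1) ⊓ Z) X j ≤ N b ⊓ Z := by
    intro b
    rcases step_inf hZn (hNn b) (hNn (b + 1)) (hNmono b) (hNstep b) with h1 | h1
    · rw [← h1]; have := hTn b; exact iterCommutator_le_left j
    · exact hZj _ _ h1 inf_le_right
  have hSstep : ∀ a, iterCommutator (N (a + 1)) X i ≤ N a := by
    intro a
    rcases hNstep a with h1 | h1
    · rw [← h1]; have := hNn a; exact iterCommutator_le_left i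
    · exact hQi _ _ h1 (hNQ _)
  have hcentral : ∀ b, ⁅N (b + 1) ⊓ Z, P⁆ ≤ N b ⊓ Z := by
    intro b
    rcases step_inf hZn (hNn b) (hNn (b + 1)) (hNmono b) (hNstep b) with h1 | h1
    · rw [← h1]; have := hTn b; exact Subgroup.commutator_le_left _ _
    · exact chief_commutator_le hP hPnil h1 ((inf_le_left.trans (hNQ _)).trans hQP)
  have hYn : ∀ c, (depthFil P Z N c).Normal := by
    intro c
    unfold depthFil
    have : (⨅ a : ℕ, centMod (N a) (N (a - c) ⊓ Z)).Normal :=
      Subgroup.normal_iInf_normal fun a => centMod_normal _ _ (hNn a)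
    infer_instance
  have hY_le : ∀ c a, ⁅N a, depthFil P Z N c⁆ ≤ N (a - c) ⊓ Z := by
    intro c a
    rw [← le_centMod_iff (hTn _)]
    exact inf_le_right.trans (iInf_le _ a)
  have hP_le : P ≤ depthFil P Z N 0 := by
    refine le_inf le_rfl (le_iInf fun a => ?_)
    rw [le_centMod_iff (hTn _)]
    refine le_inf ?_ ?_
    · have := hNn a; exact Subgroup.commutator_le_left _ _
    · rw [Subgroup.commutator_comm]
      exact ((Subgroup.commutator_mono le_rfl (hNQ a)).trans hPQ).trans (by rw [hZ])
  have hstep : ∀ c, iterCommutator (depthFil P Z N c) X k ≤ depthFil P Z N (c + 1) := by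
    intro c
    have := hYn c
    refine le_inf ((iterCommutator_le_left k).trans inf_le_left) (le_iInf fun a => ?_)
    rw [le_centMod_iff (hTn _)]
    rcases Nat.lt_or_ge c a with hca | hca
    · obtain ⟨a', rfl⟩ : ∃ a', a = a' + 1 := ⟨a - 1, by omega⟩
      have e1 : a' + 1 - (c + 1) = a' - c := by omega
      have e2 : a' + 1 - c = (a' - c) + 1 := by omega
      rw [e1]
      have := hTn (a' - c)
      refine hom_lemma_mod2 (N := N (a' - c + 1) ⊓ Z) (normal_le_normalizer (hNn _))
        (normal_le_normalizer (hYn c)) (normal_le_normalizer (hTn _)) ?_ ?_ ?_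
        (α := i) (β := j) ?_ (hTstep _) (by omega)
      · rw [Subgroup.commutator_comm]
        exact (Subgroup.commutator_mono le_rfl ((hNQ _).trans hQP)).trans (hcentral _)
      · rw [Subgroup.commutator_comm]
        exact (Subgroup.commutator_mono le_rfl inf_le_left).trans (hcentral _)
      · have h1 := hY_le c (a' + 1)
        rw [e2] at h1
        exact h1.trans le_sup_left
      · exact (Subgroup.commutator_mono (hSstep a') le_rfl).trans (hY_le c a')
    · have e1 : a - (c + 1) = 0 := by omega
      have e2 : a - c = 0 := by omega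
      have h1 := hY_le c a
      rw [e2, hN0, bot_inf_eq] at h1
      rw [e1, hN0, bot_inf_eq]
      exact (Subgroup.commutator_mono le_rfl (iterCommutator_le_left k)).trans h1
  have hYt : depthFil P Z N t ≤ Z := by
    have h1 := hY_le t t
    rw [Nat.sub_self, hN0, bot_inf_eq, hNt, Subgroup.commutator_comm, le_bot_iff,
      Subgroup.commutator_eq_bot_iff_le_centralizer] at h1
    exact (le_inf inf_le_left h1).trans hcen
  have gZ : GoodFor X k Z := by
    apply goodFor_of_chief hZn
    intro U V hUV hU
    exact iterCommutator_le_of_le hUV.2.2.1 (by omega) (hZj U V hUV hU)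
  have gY : ∀ d c : ℕ, c + d = t → GoodFor X k (depthFil P Z N c) := by
    intro d
    induction d with
    | zero =>
      intro c hc
      have : c = t := by omega
      rw [this]
      exact goodFor_mono hYt gZ
    | succ d ih =>
      intro c hc
      exact goodFor_step (hYn (c + 1)) (hstep c) (ih (c + 1) (by omega))
  exact goodFor_mono hP_le (gY t 0 (by omega))

end KHom

end Cfsg.Agent.Lib.Helper49
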