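import Mathlib
import Cfsg.Agent.Lib.Helper33.K5

/-!
# Transfer for the upper K-infinity subgroup (`p ≥ 5`)

The analogue of `Cfsg.Agent.Lib.Helper33.kInf_transfer_at` for `kInfUpper`.
-/

set_option autoImplicit false

namespace Cfsg.Agent.Lib.Helper49

open Subgroup Cfsg Cfsg.Agent.Lib.Helper33

universe u

section KUpper

variable {p : ℕ} [Fact p.Prime]

theorem famTr_kInfUpper (hp : 5 ≤ p) (G : Type u) [Group G] [Finite G] :
    FamTr p {fun (Q : Type u) [Group Q] => kInfUpper Q} G := by
  refine famTr_sections_of_good (isCharPFunctor_kInfUpper p) ?_ G (SubQ.self G)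
  intro K R _ _ T hT
  obtain ⟨g, hgT, hgP, hgood, -⟩ := kInf_good_element T (fun h => hT h.2)
  refine ⟨g, hgT, hgP, fun U V hUV hU => ?_⟩
  exact iterCommutator_le_of_le hUV.2.2.1 (by omega) (goodFor_apply hgood hUV hU)

/-- For `p ≥ 5`, the upper K-infinity subgroup of any Sylow `p`-subgroup `S` controls
transfer: `S ∩ G' = S ∩ N_G(K^∞(S))'`. -/
theorem kInfUpper_transfer_at (hp : 5 ≤ p) {G : Type u} [Group G] [Finite G] (S : Sylow p G) :
    (S : Subgroup G) ⊓ commutator G = (S : Subgroup G) ⊓
      ⁅Subgroup.normalizer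
        ((inducedFunctor (G := G) kInfUpper (S : Subgroup G) : Subgroup G) : Set G),
        Subgroup.normalizer
          ((inducedFunctor (G := G) kInfUpper (S : Subgroup G) : Subgroup G) : Set G)⁆ := by
  have hW := isCharPFunctor_kInfUpper.{u} p
  have h1 := famTr_kInfUpper hp G
  have h2 := (familyControlsTransferIn_iff
    (indFam_isConjugacyFunctor (charPFunctor_single hW) G) (sylIn_top S)).1 h1
  unfold FTrAt at h2
  rw [indFam_def, Set.image_singleton, iSup_singleton, top_inf_eq] at h2
  exact h2

end KUpper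

end Cfsg.Agent.Lib.Helper49
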