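import Mathlib
import Cfsg.Prelude.Def_Involutions

set_option autoImplicit false

namespace Cfsg.Agent.Lib.Helper49

variable {G : Type*} [Group G]

/-- Normalizers grow in finite `p`-groups (ambient version): a proper subgroup `P` of a `p`-subgroup `R`
is normalized by some element of `R` outside `P`. -/
theorem exists_normalizing_not_mem [Finite G] {p : ℕ} [Fact p.Prime] {P R : Subgroup G}
    (hR : IsPGroup p R) (hPR : P < R) :
    ∃ x ∈ R, x ∉ P ∧ x ∈ Subgroup.normalizer (P : Set G) := by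
  have : Group.IsNilpotent ↥R := hR.isNilpotent
  have hnc : NormalizerCondition ↥R := Group.normalizerCondition_of_isNilpotent
  have hlt : P.subgroupOf R < ⊤ := by
    rw [lt_top_iff_ne_top]
    intro h
    rw [Subgroup.subgroupOf_eq_top] at h
    exact (not_le_of_gt hPR) h
  have h2 := hnc _ hlt
  obtain ⟨x, hxN, hxP⟩ := SetLike.exists_of_lt h2
  refine ⟨(x : G), x.2, ?_, ?_⟩
  · intro hx
    exact hxP (Subgroup.mem_subgroupOf.mpr hx)
  · rw [Subgroup.mem_normalizer_iff]
    rw [Subgroup.mem_normalizer_iff] at hxN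
    intro y
    constructor
    · intro hy
      have := (hxN ⟨y, hPR.le hy⟩).mp (Subgroup.mem_subgroupOf.mpr hy)
      exact Subgroup.mem_subgroupOf.mp this
    · intro hy
      have hyR : y ∈ R := by
        have h3 : (x : G) * y * (x : G)⁻¹ ∈ R := hPR.le hy
        have h4 : y = (x : G)⁻¹ * ((x : G) * y * (x : G)⁻¹) * (x : G) := by group
        rw [h4]
        exact R.mul_mem (R.mul_mem (R.inv_mem x.2) h3) x.2
      have := (hxN ⟨y, hyR⟩).mpr (Subgroup.mem_subgroupOf.mpr hy)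
      exact Subgroup.mem_subgroupOf.mp this

/-- If `M` contains the normalizer of each of its nontrivial `p`-subgroups, then every `p`-subgroup
of `G` meeting `M` nontrivially lies in `M`. -/
theorem le_of_inf_ne_bot [Finite G] {p : ℕ} [Fact p.Prime] {M : Subgroup G}
    (hstar : ∀ P : Subgroup G, P ≤ M → IsPGroup p P → P ≠ ⊥ →
      Subgroup.normalizer (P : Set G) ≤ M)
    {R : Subgroup G} (hR : IsPGroup p R) (hRM : R ⊓ M ≠ ⊥) : R ≤ M := by
  by_contra hnot
  have hlt : R ⊓ M < R := by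
    refine lt_of_le_of_ne inf_le_left ?_
    intro h
    exact hnot (h ▸ inf_le_right)
  obtain ⟨x, hxR, hxP, hxN⟩ := exists_normalizing_not_mem hR hlt
  have hP : IsPGroup p ↥(R ⊓ M) := hR.to_le inf_le_left
  have := hstar (R ⊓ M) inf_le_right hP hRM hxN
  exact hxP (Subgroup.mem_inf.mpr ⟨hxR, this⟩)

/-- A strongly embedded subgroup contains the normalizer of each of its nontrivial 2-subgroups. -/
theorem normalizer_le_of_stronglyEmbedded [Finite G] {M : Subgroup G}
    (hM : Cfsg.IsStronglyEmbedded M) (P : Subgroup G) (hPM : P ≤ M) (hP : IsPGroup 2 P)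
    (hP1 : P ≠ ⊥) : Subgroup.normalizer (P : Set G) ≤ M := by
  have : Fact (Nat.Prime 2) := ⟨Nat.prime_two⟩
  intro g hg
  by_contra hgM
  have hodd := hM.2.2 g hgM
  have hle : P ≤ M ⊓ M.map (MulAut.conj g).toMonoidHom := by
    intro y hy
    refine Subgroup.mem_inf.mpr ⟨hPM hy, ?_⟩
    rw [Subgroup.mem_map]
    refine ⟨g⁻¹ * y * g, hPM ?_, ?_⟩
    · have hg' : g⁻¹ ∈ Subgroup.normalizer (P : Set G) := Subgroup.inv_mem _ hg
      rw [Subgroup.mem_normalizer_iff] at hg'
      have := (hg' y).mp hy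
      simpa using this
    · simp [mul_assoc]
  have hdvd := Subgroup.card_dvd_of_le hle
  rcases hP.card_eq_or_dvd with h1 | h2
  · exact hP1 (Subgroup.card_eq_one.mp h1)
  · have h3 : 2 ∣ Nat.card ↥(M ⊓ M.map (MulAut.conj g).toMonoidHom) := dvd_trans h2 hdvd
    rw [← even_iff_two_dvd, ← Nat.not_odd_iff_even] at h3
    exact h3 hodd

/-- A proper subgroup of even order containing the normalizer of each of its nontrivial
2-subgroups is strongly embedded. -/
theorem stronglyEmbedded_of_normalizers [Finite G] {M : Subgroup G} (hM1 : M ≠ ⊤)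
    (hM2 : Even (Nat.card M))
    (hstar : ∀ P : Subgroup G, P ≤ M → IsPGroup 2 P → P ≠ ⊥ →
      Subgroup.normalizer (P : Set G) ≤ M) : Cfsg.IsStronglyEmbedded M := by
  have : Fact (Nat.Prime 2) := ⟨Nat.prime_two⟩
  refine ⟨hM1, hM2, ?_⟩
  intro g hgM
  by_contra hodd
  rw [Nat.not_odd_iff_even, even_iff_two_dvd] at hodd
  set K : Subgroup G := M ⊓ M.map (MulAut.conj g).toMonoidHom with hK
  -- a nontrivial 2-subgroup of K
  obtain ⟨P₀⟩ : Nonempty (Sylow 2 ↥K) := inferInstance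
  have hP₀1 : (P₀ : Subgroup ↥K) ≠ ⊥ := P₀.ne_bot_of_dvd_card hodd
  set P : Subgroup G := (P₀ : Subgroup ↥K).map K.subtype with hP
  have hPK : P ≤ K := by
    rw [hP]
    exact Subgroup.map_subtype_le _
  have hPp : IsPGroup 2 P := P₀.isPGroup'.map K.subtype
  have hP1 : P ≠ ⊥ := by
    intro h
    apply hP₀1
    rw [hP] at h
    exact (Subgroup.map_eq_bot_iff_of_injective _ K.subtype_injective).mp h
  obtain ⟨y, hyP, hy1⟩ : ∃ y ∈ P, y ≠ 1 := by
    by_contra hcon
    apply hP1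
    rw [eq_bot_iff]
    intro y hy
    by_contra hy1
    exact hcon ⟨y, hy, fun h => hy1 (by rw [Subgroup.mem_bot]; exact h)⟩
  obtain ⟨R, hPR⟩ := hPp.exists_le_sylow
  have hRp : IsPGroup 2 (R : Subgroup G) := R.isPGroup'
  have hyM : y ∈ M := (Subgroup.mem_inf.mp (hPK hyP)).1
  have hyMg : y ∈ M.map (MulAut.conj g).toMonoidHom := (Subgroup.mem_inf.mp (hPK hyP)).2
  have hRM : (R : Subgroup G) ≤ M := by
    apply le_of_inf_ne_bot hstar hRp
    intro h
    have : y ∈ (R : Subgroup G) ⊓ M := Subgroup.mem_inf.mpr ⟨hPR hyP, hyM⟩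
    rw [h, Subgroup.mem_bot] at this
    exact hy1 this
  have hR'M : ((g⁻¹ • R : Sylow 2 G) : Subgroup G) ≤ M := by
    apply le_of_inf_ne_bot hstar (g⁻¹ • R : Sylow 2 G).isPGroup'
    intro h
    obtain ⟨y', hy'M, hy'⟩ := Subgroup.mem_map.mp hyMg
    have hy'' : g * y' * g⁻¹ = y := by simpa using hy'
    have h1 : y' ∈ ((g⁻¹ • R : Sylow 2 G) : Subgroup G) := by
      rw [Sylow.coe_subgroup_smul, Subgroup.mem_pointwise_smul_iff_inv_smul_mem]
      have h7 : (MulAut.conj g⁻¹)⁻¹ • y' = g * y' * g⁻¹ := by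
        simp [MulAut.smul_def]
      rw [h7, hy'']
      exact hPR hyP
    have : y' ∈ ((g⁻¹ • R : Sylow 2 G) : Subgroup G) ⊓ M := Subgroup.mem_inf.mpr ⟨h1, hy'M⟩
    rw [h, Subgroup.mem_bot] at this
    apply hy1
    rw [← hy'', this]
    group
  obtain ⟨h, hh⟩ := MulAction.exists_smul_eq ↥M ((g⁻¹ • R : Sylow 2 G).subtype hR'M) (R.subtype hRM)
  simp_rw [Sylow.smul_subtype, Subgroup.smul_def, smul_smul] at hh
  have hnorm : (h : G) * g⁻¹ ∈ Subgroup.normalizer ((R : Subgroup G) : Set G) :=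
    Sylow.smul_eq_iff_mem_normalizer.mp (Sylow.subtype_injective hh)
  have hR1 : (R : Subgroup G) ≠ ⊥ := by
    intro hbot
    have : y ∈ (R : Subgroup G) := hPR hyP
    rw [hbot, Subgroup.mem_bot] at this
    exact hy1 this
  have h5 : (h : G) * g⁻¹ ∈ M := hstar _ hRM hRp hR1 hnorm
  have h6 : g⁻¹ ∈ M := by
    have := M.mul_mem (M.inv_mem h.2) h5
    simpa using this
  exact hgM (by simpa using M.inv_mem h6)

end Cfsg.Agent.Lib.Helper49
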