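import Mathlib
import Cfsg.Prelude.Def_Involutions
import Cfsg.Agent.Lib.Helper4.Dihedral
import Cfsg.Agent.Lib.Helper4.SylowTwo
import Cfsg.Agent.Lib.Helper4.StrongEmb
import Cfsg.Agent.Lib.Helper49.StrEmb

set_option autoImplicit false

namespace Cfsg.Agent.Lib.Helper49

open Cfsg.Agent.Lib.Helper4

variable {G : Type*} [Group G]

/-- A nontrivial 2-subgroup contains an involution. -/
theorem exists_involution_of_ne_bot [Finite G] {P : Subgroup G} (hP : IsPGroup 2 P)
    (hP1 : P ≠ ⊥) : ∃ t ∈ P, orderOf t = 2 := by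
  have : Fact (Nat.Prime 2) := ⟨Nat.prime_two⟩
  rcases hP.card_eq_or_dvd with h1 | h2
  · exact absurd (Subgroup.card_eq_one.mp h1) hP1
  · obtain ⟨r, hr⟩ := exists_prime_orderOf_dvd_card' 2 h2
    exact ⟨r.1, r.2, by rw [Subgroup.orderOf_coe]; exact hr⟩

/-- A subgroup of even order contains an involution. -/
theorem exists_involution_of_even [Finite G] {H : Subgroup G} (hH : Even (Nat.card H)) :
    ∃ t ∈ H, orderOf t = 2 := by
  have : Fact (Nat.Prime 2) := ⟨Nat.prime_two⟩
  obtain ⟨r, hr⟩ := exists_prime_orderOf_dvd_card' 2 (even_iff_two_dvd.mp hH)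
  exact ⟨r.1, r.2, by rw [Subgroup.orderOf_coe]; exact hr⟩

/-- A `p`-subgroup of the normalizer of a Sylow `p`-subgroup lies in it. -/
theorem le_sylow_of_le_normalizer [Finite G] {p : ℕ} [Fact p.Prime] (T : Sylow p G)
    {P : Subgroup G} (hP : IsPGroup p P)
    (hPN : P ≤ Subgroup.normalizer ((T : Subgroup G) : Set G)) : P ≤ (T : Subgroup G) := by
  have h1 : IsPGroup p ↥(P ⊔ (T : Subgroup G)) :=
    IsPGroup.to_sup_of_normal_right' hP T.isPGroup' hPN
  have h2 := T.is_maximal' h1 le_sup_right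
  rw [← h2]
  exact le_sup_left

/-- The cyclic group generated by an involution is a 2-group. -/
theorem isPGroup_zpowers_of_orderOf_two {t : G} (ht : orderOf t = 2) :
    IsPGroup 2 (Subgroup.zpowers t) := by
  apply IsPGroup.of_card (n := 1)
  rw [Nat.card_zpowers, ht, pow_one]

/-- A strongly embedded subgroup contains a Sylow 2-subgroup of the whole group. -/
theorem exists_sylow_le_of_stronglyEmbedded [Finite G] {H : Subgroup G}
    (hH : Cfsg.IsStronglyEmbedded H) : ∃ S : Sylow 2 G, (S : Subgroup G) ≤ H := by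
  have : Fact (Nat.Prime 2) := ⟨Nat.prime_two⟩
  obtain ⟨t, htH, ht⟩ := exists_involution_of_even hH.2.1
  obtain ⟨R, hR⟩ := (isPGroup_zpowers_of_orderOf_two ht).exists_le_sylow
  refine ⟨R, ?_⟩
  apply le_of_inf_ne_bot (normalizer_le_of_stronglyEmbedded hH) R.isPGroup'
  intro h
  have h1 : t ∈ (R : Subgroup G) ⊓ H :=
    Subgroup.mem_inf.mpr ⟨hR (Subgroup.mem_zpowers t), htH⟩
  rw [h, Subgroup.mem_bot] at h1
  exact ne_one_of_orderOf_two ht h1

/-- Every involution is conjugate into a strongly embedded subgroup. -/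
theorem exists_conj_mem_of_stronglyEmbedded [Finite G] {H : Subgroup G}
    (hH : Cfsg.IsStronglyEmbedded H) {i : G} (hi : orderOf i = 2) : ∃ g : G, g⁻¹ * i * g ∈ H := by
  have : Fact (Nat.Prime 2) := ⟨Nat.prime_two⟩
  obtain ⟨S, hS⟩ := exists_sylow_le_of_stronglyEmbedded hH
  obtain ⟨R, hR⟩ := (isPGroup_zpowers_of_orderOf_two hi).exists_le_sylow
  obtain ⟨g, hg⟩ := MulAction.exists_smul_eq G S R
  refine ⟨g, hS ?_⟩
  have h1 : i ∈ g • S := by rw [hg]; exact hR (Subgroup.mem_zpowers i)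
  exact mem_sylow_smul_iff.mp h1

/-- Fixed cosets. -/
theorem smul_mk_eq_iff {H : Subgroup G} (i g : G) :
    i • (g : G ⧸ H) = (g : G ⧸ H) ↔ g⁻¹ * i * g ∈ H := by
  rw [MulAction.Quotient.smul_mk, QuotientGroup.eq, smul_eq_mul]
  constructor
  · intro h
    have := H.inv_mem h
    simpa [mul_assoc] using this
  · intro h
    have := H.inv_mem h
    simpa [mul_assoc] using this

/-- An involution fixes at most one coset of a strongly embedded subgroup. -/
theorem fix_unique_of_stronglyEmbedded [Finite G] {H : Subgroup G}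
    (hH : Cfsg.IsStronglyEmbedded H) {i : G} (hi : orderOf i = 2) {a b : G ⧸ H}
    (ha : i • a = a) (hb : i • b = b) : a = b := by
  obtain ⟨a, rfl⟩ := QuotientGroup.mk_surjective a
  obtain ⟨b, rfl⟩ := QuotientGroup.mk_surjective b
  rw [smul_mk_eq_iff] at ha hb
  have h1 : orderOf (a⁻¹ * i * a) = 2 := by
    have := orderOf_conj' a⁻¹ i
    rw [inv_inv] at this
    rw [this, hi]
  have h2 : (b⁻¹ * a) * (a⁻¹ * i * a) * (b⁻¹ * a)⁻¹ ∈ H := by
    have : (b⁻¹ * a) * (a⁻¹ * i * a) * (b⁻¹ * a)⁻¹ = b⁻¹ * i * b := by group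
    rw [this]
    exact hb
  have h3 := se_mem_of_conj_mem hH ha h1 h2
  rw [eq_comm, QuotientGroup.eq]
  exact h3

/-- Every involution fixes a coset of a strongly embedded subgroup. -/
theorem fix_exists_of_stronglyEmbedded [Finite G] {H : Subgroup G}
    (hH : Cfsg.IsStronglyEmbedded H) {i : G} (hi : orderOf i = 2) :
    ∃ a : G ⧸ H, i • a = a := by
  obtain ⟨g, hg⟩ := exists_conj_mem_of_stronglyEmbedded hH hi
  exact ⟨(g : G ⧸ H), (smul_mk_eq_iff i g).mpr hg⟩

/-- Involutions with different fixed cosets have a product of odd order. -/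
theorem odd_mul_of_fix_ne [Finite G] {H : Subgroup G} (hH : Cfsg.IsStronglyEmbedded H)
    {t u : G} (ht : orderOf t = 2) (hu : orderOf u = 2) {x y : G ⧸ H} (hx : t • x = x)
    (hy : u • y = y) (hxy : x ≠ y) : Odd (orderOf (t * u)) := by
  by_contra hodd
  rw [Nat.not_odd_iff_even] at hodd
  obtain ⟨hz, hzt, hzu⟩ := dih_center ht hu hodd
  set z := (t * u) ^ (orderOf (t * u) / 2) with hzdef
  have h1 : t • (z • x) = z • x := by
    rw [← mul_smul, ← hzt.eq, mul_smul, hx]
  have h2 : u • (z • y) = z • y := by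
    rw [← mul_smul, ← hzu.eq, mul_smul, hy]
  have h3 : z • x = x := fix_unique_of_stronglyEmbedded hH ht h1 hx
  have h4 : z • y = y := fix_unique_of_stronglyEmbedded hH hu h2 hy
  exact hxy (fix_unique_of_stronglyEmbedded hH hz h3 h4)

/-- Two involutions with product of odd order are conjugate by an involution. -/
theorem dih_invol_conj_of_odd {x y : G} (hx : orderOf x = 2) (hy : orderOf y = 2)
    (hodd : Odd (orderOf (x * y))) : ∃ i : G, orderOf i = 2 ∧ i * x * i⁻¹ = y := by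
  obtain ⟨m, hm⟩ := hodd
  have hx2 := mul_self_of_orderOf_two hx
  have hy2 := mul_self_of_orderOf_two hy
  refine ⟨x * (x * y) ^ ((m : ℤ) + 1), ?_, ?_⟩
  · exact orderOf_two_of_mul_self (dih_sq hx2 hy2 _) (dih_x_not_mem hx hy _)
  · rw [dih_inv hx2 hy2, mul_assoc (x * (x * y) ^ ((m : ℤ) + 1)) x, ← mul_assoc x x, hx2, one_mul,
      mul_assoc, ← zpow_add]
    have h1 : (x * y) ^ ((m : ℤ) + 1 + ((m : ℤ) + 1)) = (x * y) ^ (1 : ℤ) := by
      rw [zpow_eq_zpow_iff_modEq, hm]
      push_cast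
      exact Int.modEq_iff_dvd.mpr ⟨-1, by ring⟩
    rw [h1, zpow_one, x_mul_xy hx2]

end Cfsg.Agent.Lib.Helper49
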