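import Mathlib
import Cfsg.Agent.Lib.Helper11.StableClosure
import Cfsg.Agent.Lib.Helper49.PConstr

/-!
Images of `Ω₁(Z(S))` and `J(S)` under homomorphisms injective on `S` (helper49).
-/

set_option autoImplicit false

namespace Cfsg.Agent.Lib.Helper49

open Cfsg

universe u

/-- `J(f(S)) = f(J(S))` for a homomorphism `f` injective on `S`. -/
theorem thompsonSubgroupOf_map_of_injOn {G G' : Type u} [Group G] [Group G'] (p : ℕ)
    (f : G →* G') (S : Subgroup G) (hinj : ∀ x ∈ S, f x = 1 → x = 1) :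
    Cfsg.thompsonSubgroupOf p (S.map f) = (Cfsg.thompsonSubgroupOf p S).map f := by
  have hf : Function.Injective (f.comp S.subtype) := by
    rw [injective_iff_map_eq_one]
    intro x hx
    exact Subtype.ext (hinj x x.2 hx)
  have h1 := Cfsg.Agent.Lib.Helper11.thompsonSubgroupOf_map p (f.comp S.subtype) hf
    (⊤ : Subgroup ↥S)
  have h2 : (⊤ : Subgroup ↥S).map (f.comp S.subtype) = S.map f := by
    rw [← Subgroup.map_map, ← MonoidHom.range_eq_map, Subgroup.range_subtype]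
  rw [h2, Cfsg.Agent.Lib.Helper11.thompsonSubgroupOf_top, ← Subgroup.map_map] at h1
  exact h1

/-- `Ω₁(f(K)) = f(Ω₁(K))` for a homomorphism `f` injective on `K`. -/
theorem omegaOne_map_of_injOn {G G' : Type*} [Group G] [Group G'] (p : ℕ) (f : G →* G')
    (K : Subgroup G) (hinj : ∀ x ∈ K, f x = 1 → x = 1) :
    (Cfsg.omegaOne p K).map f = Cfsg.omegaOne p (K.map f) := by
  show (Subgroup.closure {x : G | x ∈ K ∧ x ^ p = 1}).map f =
    Subgroup.closure {y : G' | y ∈ K.map f ∧ y ^ p = 1}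
  rw [MonoidHom.map_closure]
  congr 1
  ext y
  constructor
  · rintro ⟨x, ⟨hx, hxp⟩, rfl⟩
    exact ⟨Subgroup.mem_map_of_mem f hx, by rw [← map_pow, hxp, map_one]⟩
  · rintro ⟨⟨x, hx, rfl⟩, hyp⟩
    refine ⟨x, ⟨hx, hinj _ (K.pow_mem hx p) ?_⟩, rfl⟩
    rw [map_pow]; exact hyp

/-- `Z(f(S)) = f(Z(S))` for a homomorphism `f` injective on `S`. -/
theorem map_inf_centralizer_of_injOn {G G' : Type*} [Group G] [Group G'] (f : G →* G')
    (S : Subgroup G) (hinj : ∀ x ∈ S, f x = 1 → x = 1) :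
    (S ⊓ Subgroup.centralizer (S : Set G)).map f =
      S.map f ⊓ Subgroup.centralizer ((S.map f : Subgroup G') : Set G') := by
  ext y
  constructor
  · rintro ⟨x, ⟨hxS, hxC⟩, rfl⟩
    refine ⟨⟨x, hxS, rfl⟩, ?_⟩
    refine Subgroup.mem_centralizer_iff.mpr ?_
    rintro _ ⟨s, hs, rfl⟩
    rw [← map_mul, ← map_mul, Subgroup.mem_centralizer_iff.mp hxC s hs]
  · rintro ⟨⟨x, hxS, rfl⟩, hyC⟩
    refine ⟨x, ⟨hxS, ?_⟩, rfl⟩
    refine Subgroup.mem_centralizer_iff.mpr ?_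
    intro s hs
    have h1 := Subgroup.mem_centralizer_iff.mp hyC (f s) ⟨s, hs, rfl⟩
    have h2 : s * x * (x * s)⁻¹ = 1 :=
      hinj _ (S.mul_mem (S.mul_mem hs hxS) (S.inv_mem (S.mul_mem hxS hs)))
        (by rw [map_mul, map_inv, map_mul, map_mul, h1, mul_inv_cancel])
    exact mul_inv_eq_one.mp h2

end Cfsg.Agent.Lib.Helper49
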